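import Cfsg.Agent.H477.HC.Rk3
import Cfsg.Agent.H314.CY.Loc

/-!
# S4829, `p ∣ Q - 1`: the torus element of a hyperbolic pair and the local condition (helper450)

`Hyp F F' e f j` a hyperbolic pair with its complement: `Tor h t z` : `z e = t e`, `z f = (σ t)⁻¹ f`, `z (j x) = j x`;
`exists_tor`, `tor_fix` (the fixed points of `z`), `tor_pow`; `loc_tor` : the local condition of `locQ_of_sylow`;
`partners_orth` : two opposite points of a given point (orthogonal forms).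
-/

set_option autoImplicit false

open Module MulAction

namespace Cfsg.Agent.H450.CY

open Cfsg.Agent.H53.HC Cfsg.Agent.H477.HC Cfsg.Agent.H477.HC.CForm Cfsg.Agent.H314.CY

universe u v w

variable {K : Type u} [Field K] {V : Type v} [AddCommGroup V] [Module K V] {F : CForm K V}
  {X : Type w} [AddCommGroup X] [Module K X] {F' : CForm K X} {e f : V} {j : X →ₗ[K] V}

/-- `z` acts as `t`, `(σ t)⁻¹`, `1` on `e`, `f` and the complement -/
structure Tor (F : CForm K V) (e f : V) (j : X →ₗ[K] V) (t : K) (z : F.iso) : Prop where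
  ze : (z : V ≃ₗ[K] V) e = t • e
  zf : (z : V ≃ₗ[K] V) f = (F.σ t)⁻¹ • f
  zj : ∀ x, (z : V ≃ₗ[K] V) (j x) = j x

/-- the decomposition of a vector -/
theorem hyp_dec (h : Hyp F F' e f j) (v : V) : ∃ x, v = F.B v f • e + (F.ε⁻¹ * F.B v e) • f + j x := by
  obtain ⟨x, hx⟩ := h.dec (v - F.B v f • e - (F.ε⁻¹ * F.B v e) • f) (by
      rw [F.B_sub_left, F.B_sub_left, F.B_smul_left, F.B_smul_left, h.he.2, h.hfe]
      have := F.ε_ne
      field_simp
      ring) (by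
      rw [F.B_sub_left, F.B_sub_left, F.B_smul_left, F.B_smul_left, h.hf.2, h.hef]
      ring)
  exact ⟨x, by rw [← hx]; abel⟩

/-- **the torus element** -/
theorem exists_tor [FiniteDimensional K V] (h : Hyp F F' e f j) {t : K} (ht : t ≠ 0) : ∃ z : F.iso, Tor F e f j t z := by
  have hst : F.σ t ≠ 0 := by rwa [Ne, map_eq_zero]
  have hε := F.ε_ne
  let L : V →ₗ[K] V :=
    { toFun := fun v => v + ((t - 1) * F.B v f) • e + (((F.σ t)⁻¹ - 1) * F.ε⁻¹ * F.B v e) • f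
      map_add' := fun x z => by
        rw [F.B_add_left, F.B_add_left]
        module
      map_smul' := fun a x => by
        rw [F.B_smul_left, F.B_smul_left, RingHom.id_apply]
        module }
  have hL : ∀ v, L v = v + ((t - 1) * F.B v f) • e + (((F.σ t)⁻¹ - 1) * F.ε⁻¹ * F.B v e) • f := fun v => rfl
  obtain ⟨z, hz⟩ := F.exists_iso L (fun u v => by
    rw [hL, hL]
    simp only [F.B_add_left, F.B_add_right, F.B_smul_left, F.B_smul_right, h.he.2, h.hf.2, h.hef, h.hfe, map_mul, map_sub,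
      map_one, map_inv₀, F.σσ, F.σε, inv_inv]
    rw [F.B_symm e v, F.B_symm f v]
    field_simp
    ring) (fun v => by
    rw [hL]
    have e1 : v + ((t - 1) * F.B v f) • e + (((F.σ t)⁻¹ - 1) * F.ε⁻¹ * F.B v e) • f =
      v + (((t - 1) * F.B v f) • e + (((F.σ t)⁻¹ - 1) * F.ε⁻¹ * F.B v e) • f) := by abel
    rw [e1, F.Q_add, F.Q_add, F.Q_smul, F.Q_smul, h.he.1, h.hf.1]
    simp only [F.B_add_right, F.B_smul_left, F.B_smul_right, h.hef, map_mul, map_sub, map_one, map_inv₀, F.σσ, F.σε,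
      inv_inv, mul_zero, mul_one, zero_add]
    rw [add_assoc, ← F.T_add]
    have e2 : (t - 1) * F.B v f * ((t⁻¹ - 1) * F.ε * F.σ (F.B v e)) +
        ((F.σ t - 1) * F.σ (F.B v f) * F.B v e + (t⁻¹ - 1) * F.ε * F.σ (F.B v e) * F.B v f) =
        (F.σ t - 1) * F.σ (F.B v f) * F.B v e - F.ε * F.σ ((F.σ t - 1) * F.σ (F.B v f) * F.B v e) := by
      simp only [map_mul, map_sub, map_one, F.σσ]
      field_simp
      ring
    rw [e2, F.T_sub, F.T_symm, sub_self, add_zero])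
  refine ⟨z, ?_, ?_, fun x => ?_⟩
  · rw [hz, hL, h.he.2, h.hef]
    module
  · rw [hz, hL, h.hf.2, h.hfe, mul_assoc (((F.σ t)⁻¹ - 1)), inv_mul_cancel₀ hε]
    module
  · rw [hz, hL, h.hje, h.hjf]
    module

theorem tor_pow {t : K} {z : F.iso} (hz : Tor F e f j t z) (n : ℕ) : Tor F e f j (t ^ n) (z ^ n) := by
  induction n with
  | zero =>
    refine ⟨?_, ?_, fun x => ?_⟩
    · rw [pow_zero, pow_zero, one_smul]; rfl
    · rw [pow_zero, pow_zero, map_one, inv_one, one_smul]; rfl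
    · rw [pow_zero]; rfl
  | succ n ih =>
    have key : ∀ v, ((z ^ (n + 1) : F.iso) : V ≃ₗ[K] V) v = ((z ^ n : F.iso) : V ≃ₗ[K] V) ((z : V ≃ₗ[K] V) v) := by
      intro v
      rw [pow_succ]
      rfl
    refine ⟨?_, ?_, fun x => ?_⟩
    · rw [key, hz.ze, map_smul, ih.ze, smul_smul, pow_succ, mul_comm]
    · rw [key, hz.zf, map_smul, ih.zf, smul_smul, pow_succ, map_mul, mul_inv, mul_comm]
    · rw [key, hz.zj, ih.zj]

theorem tor_eq_one (h : Hyp F F' e f j) {z : F.iso} (hz : Tor F e f j 1 z) : z = 1 := by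
  apply Subtype.ext
  apply LinearEquiv.ext
  intro v
  obtain ⟨x, hx⟩ := hyp_dec h v
  have e1 : (z : V ≃ₗ[K] V) e = e := by rw [hz.ze, one_smul]
  have e2 : (z : V ≃ₗ[K] V) f = f := by rw [hz.zf, map_one, inv_one, one_smul]
  rw [hx, map_add, map_add, map_smul, map_smul, e1, e2, hz.zj]
  rfl

theorem tor_pow_eq_one (h : Hyp F F' e f j) {t : K} {z : F.iso} (hz : Tor F e f j t z) {n : ℕ} (hn : t ^ n = 1) :
    z ^ n = 1 := tor_eq_one h (by
  have := tor_pow hz n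
  rwa [hn] at this)

/-- **the fixed points of the torus element** -/
theorem tor_fix (h : Hyp F F' e f j) {t : K} {z : F.iso} (hz : Tor F e f j t z) (ht1 : t ≠ 1) (ht2 : t * F.σ t ≠ 1)
    {y : F.Pt} (hy : z • y = y) : y = F.pt e h.e0 h.he ∨ y = F.pt f h.f0 h.hf ∨
      ∃ (x : X) (_ : x ≠ 0) (_ : F'.Sing x) (h0 : j x ≠ 0) (h1 : F.Sing (j x)), y = F.pt (j x) h0 h1 := by
  obtain ⟨v, h0, hv, rfl⟩ := F.exists_pt y
  have ht : t ≠ 0 := by
    rintro rfl
    have := hz.ze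
    rw [zero_smul, LinearEquiv.map_eq_zero_iff] at this
    exact h.e0 this
  have hst : F.σ t ≠ 0 := by rwa [Ne, map_eq_zero]
  rw [F.smul_pt, F.pt_eq_iff] at hy
  obtain ⟨c, hc, hzv⟩ := hy
  obtain ⟨x, hx⟩ := hyp_dec h v
  obtain ⟨α, hα⟩ : ∃ α, α = F.B v f := ⟨_, rfl⟩
  obtain ⟨β, hβ⟩ : ∃ β, β = F.ε⁻¹ * F.B v e := ⟨_, rfl⟩
  rw [← hα, ← hβ] at hx
  have hzv' : (α * t - c * α) • e + (β * (F.σ t)⁻¹ - c * β) • f + j (x - c • x) = 0 := by
    have h1 : (z : V ≃ₗ[K] V) v - c • v = 0 := sub_eq_zero.2 hzv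
    rw [hx, map_add, map_add, map_smul, map_smul, hz.ze, hz.zf, hz.zj] at h1
    rw [map_sub, map_smul]
    rw [← h1]
    module
  have h1 : α * t - c * α = 0 := by
    have := congrArg (fun v => F.B v f) hzv'
    simp only [F.B_add_left, F.B_smul_left, h.hef, h.hf.2, h.hjf, F.B_zero_left] at this
    linear_combination this
  have h2 : β * (F.σ t)⁻¹ - c * β = 0 := by
    have := congrArg (fun v => F.B v e) hzv'
    simp only [F.B_add_left, F.B_smul_left, h.hfe, h.he.2, h.hje, F.B_zero_left] at this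
    have h3 : (β * (F.σ t)⁻¹ - c * β) * F.ε = 0 := by linear_combination this
    exact (mul_eq_zero.1 h3).resolve_right F.ε_ne
  have h3 : x - c • x = 0 := by
    rw [h1, h2, zero_smul, zero_smul, zero_add, zero_add] at hzv'
    exact h.inj (by rw [hzv', map_zero])
  have h1' : (t - c) * α = 0 := by linear_combination h1
  have h2' : ((F.σ t)⁻¹ - c) * β = 0 := by linear_combination h2
  have h3' : (1 - c) • x = 0 := by rw [sub_smul, one_smul]; exact h3
  have hts : t ≠ (F.σ t)⁻¹ := by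
    intro h4
    apply ht2
    calc t * F.σ t = (F.σ t)⁻¹ * F.σ t := by rw [← h4]
      _ = 1 := inv_mul_cancel₀ hst
  by_cases hα0 : α = 0
  · by_cases hβ0 : β = 0
    · -- in the complement
      right; right
      rw [hα0, hβ0, zero_smul, zero_smul, zero_add, zero_add] at hx
      have hx0 : x ≠ 0 := by
        rintro rfl
        rw [map_zero] at hx
        exact h0 hx
      subst hx
      exact ⟨x, hx0, h.sing_j.1 hv, h0, hv, rfl⟩
    · -- the point `f`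
      right; left
      have hc' : c = (F.σ t)⁻¹ := (sub_eq_zero.1 ((mul_eq_zero.1 h2').resolve_right hβ0)).symm
      have hc1 : c ≠ 1 := by
        intro h4
        rw [h4] at hc'
        apply ht1
        have h5 : F.σ t = 1 := by rw [← inv_inv (F.σ t), ← hc', inv_one]
        rw [← F.σσ t, h5, map_one]
      have hx0 : x = 0 := (smul_eq_zero.1 h3').resolve_left (sub_ne_zero.2 hc1.symm)
      rw [hα0, hx0, zero_smul, zero_add, map_zero, add_zero] at hx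
      rw [F.pt_eq_iff]
      exact ⟨β, hβ0, hx⟩
  · left
    have hc' : c = t := (sub_eq_zero.1 ((mul_eq_zero.1 h1').resolve_right hα0)).symm
    have hβ0 : β = 0 := (mul_eq_zero.1 h2').resolve_left (by
      rw [hc']
      exact sub_ne_zero.2 hts.symm)
    have hx0 : x = 0 := (smul_eq_zero.1 h3').resolve_left (by
      rw [hc']
      exact sub_ne_zero.2 ht1.symm)
    rw [hβ0, hx0, zero_smul, add_zero, map_zero, add_zero] at hx
    rw [F.pt_eq_iff]
    exact ⟨α, hα0, hx⟩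

/-- `e` is fixed -/
theorem tor_smul_e (h : Hyp F F' e f j) {t : K} (ht : t ≠ 0) {z : F.iso} (hz : Tor F e f j t z) :
    z • F.pt e h.e0 h.he = F.pt e h.e0 h.he := by
  rw [F.smul_pt, F.pt_eq_iff]
  exact ⟨t, ht, hz.ze⟩

/-- the points of the complement are fixed -/
theorem tor_smul_j {t : K} {z : F.iso} (hz : Tor F e f j t z) {x : X} (h0 : j x ≠ 0) (h1 : F.Sing (j x)) :
    z • F.pt (j x) h0 h1 = F.pt (j x) h0 h1 := by
  rw [F.smul_pt, F.pt_eq_iff]
  exact ⟨1, one_ne_zero, by rw [one_smul, hz.zj]⟩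

/-- **the local condition** -/
theorem loc_tor [Finite V] (h : Hyp F F' e f j) {t : K} {z : F.iso} (hz : Tor F e f j t z) (ht1 : t ≠ 1)
    (ht2 : t * F.σ t ≠ 1)
    (hX : ∀ u : X, u ≠ 0 → F'.Sing u → ∃ v₁ v₂ : X, F'.Sing v₁ ∧ F'.Sing v₂ ∧ F'.B u v₁ ≠ 0 ∧ F'.B u v₂ ≠ 0 ∧
      ∀ c : K, v₁ ≠ c • v₂)
    {S : Type*} [Group S] [MulAction S F.Pt] {s : S} (hs : ∀ y : F.Pt, s • y = z • y) {y : F.Pt} (hy : s • y = y)
    (hey : F.Rel (F.pt e h.e0 h.he) y) : nn F.Rel s y ≠ nn F.Rel s (F.pt e h.e0 h.he) := by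
  have hfin : Finite F.Pt := inferInstance
  have hnp : ¬ F.Perp (F.pt e h.e0 h.he) (F.pt f h.f0 h.hf) := by
    rw [F.perp_pt, h.hef]
    exact one_ne_zero
  refine nn_ne ⟨F.pt f h.f0 h.hf, fun w hw hwe hnr => ?_⟩ ?_
  · rw [hs] at hw
    rcases tor_fix h hz ht1 ht2 hw with h1 | h1 | ⟨x, -, -, h0, h1, h2⟩
    · exact absurd h1 hwe
    · exact h1
    · exfalso
      apply hnr
      refine ⟨fun h3 => hwe h3.symm, ?_⟩
      rw [h2, F.perp_pt]
      exact F.B_eq_zero (h.hje x)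
  · rw [hs] at hy
    rcases tor_fix h hz ht1 ht2 hy with h1 | h1 | ⟨x, hx0, hxs, h0, h1, h2⟩
    · exact absurd h1.symm hey.1
    · exact absurd (h1 ▸ hey.2) hnp
    · subst h2
      obtain ⟨v₁, v₂, hv₁, hv₂, hb₁, hb₂, hne⟩ := hX x hx0 hxs
      have hj : ∀ v, F'.B x v ≠ 0 → j v ≠ 0 := by
        intro v hv hv0
        apply hv
        rw [← h.hjB, hv0, F.B_zero_right]
      have key : ∀ v, ∀ (hv : F'.B x v ≠ 0) (hvs : F'.Sing v),
          (s • F.pt (j v) (hj v hv) (h.sing_j.2 hvs) = F.pt (j v) (hj v hv) (h.sing_j.2 hvs) ∧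
          F.pt (j v) (hj v hv) (h.sing_j.2 hvs) ≠ F.pt (j x) h0 h1 ∧
          ¬ F.Rel (F.pt (j x) h0 h1) (F.pt (j v) (hj v hv) (h.sing_j.2 hvs))) := by
        intro v hv hvs
        have hnp2 : ¬ F.Perp (F.pt (j x) h0 h1) (F.pt (j v) (hj v hv) (h.sing_j.2 hvs)) := by
          rw [F.perp_pt, h.hjB]
          exact hv
        refine ⟨?_, fun h3 => hnp2 ?_, fun h3 => hnp2 h3.2⟩
        · rw [hs]
          exact tor_smul_j hz _ _
        · rw [h3]
          exact F.perp_self _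
      refine ⟨F.pt (j v₁) (hj v₁ hb₁) (h.sing_j.2 hv₁), F.pt (j v₂) (hj v₂ hb₂) (h.sing_j.2 hv₂), ?_, key v₁ hb₁ hv₁,
        key v₂ hb₂ hv₂⟩
      intro h3
      rw [F.pt_eq_iff] at h3
      obtain ⟨c, -, hc⟩ := h3
      refine hne c (h.inj ?_)
      rw [hc, map_smul]

/-- **orthogonal forms: two opposite points** -/
theorem partners_orth [FiniteDimensional K X] (hσ : ∀ a, F'.σ a = a) (hε : F'.ε = 1) (hT : ∀ a, F'.T a = a)
    (hd : 3 ≤ finrank K X) : ∀ u : X, u ≠ 0 → F'.Sing u → ∃ v₁ v₂ : X, F'.Sing v₁ ∧ F'.Sing v₂ ∧ F'.B u v₁ ≠ 0 ∧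
      F'.B u v₂ ≠ 0 ∧ ∀ c : K, v₁ ≠ c • v₂ := by
  intro u hu hus
  have hsym : ∀ x y, F'.B x y = F'.B y x := by
    intro x y
    rw [F'.B_symm x y, hε, one_mul, hσ]
  have hsing : ∀ x, F'.Q x = 0 → F'.Sing x := fun x hx => ⟨hx, F'.alt x hx⟩
  have hsr : ∀ a x y, F'.B x (a • y) = a * F'.B x y := by
    intro a x y
    rw [F'.B_smul_right, hσ]
  obtain ⟨v, hv⟩ : ∃ v, F'.B u v ≠ 0 := by
    by_contra hcon
    push Not at hcon
    exact hu (F'.nondeg u hcon)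
  -- normalise
  obtain ⟨v', hv'⟩ : ∃ v', F'.B u v' = 1 := ⟨(F'.B u v)⁻¹ • v, by rw [hsr, inv_mul_cancel₀ hv]⟩
  obtain ⟨v₁, hv₁⟩ : ∃ v₁, v₁ = v' + (-(F'.Q v')) • u := ⟨_, rfl⟩
  have hb₁ : F'.B u v₁ = 1 := by
    rw [hv₁, F'.B_add_right, hsr, hv', hus.2]
    ring
  have hq₁ : F'.Q v₁ = 0 := by
    rw [hv₁, F'.Q_add, F'.Q_smul, hus.1, hT, hsr, hsym v' u, hv']
    ring
  obtain ⟨w, hw, hw0⟩ : ∃ w : X, (F'.B w u = 0 ∧ F'.B w v₁ = 0) ∧ w ≠ 0 := by
    let f : X →ₗ[K] (Fin 2 → K) := LinearMap.pi ![F'.lf u, F'.lf v₁]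
    have h1 : LinearMap.ker f ≠ ⊥ := LinearMap.ker_ne_bot_of_finrank_lt (by
      rw [Module.finrank_fin_fun]
      omega)
    obtain ⟨w, hw, hw0⟩ := (Submodule.ne_bot_iff _).1 h1
    rw [LinearMap.mem_ker] at hw
    exact ⟨w, ⟨congrFun hw 0, congrFun hw 1⟩, hw0⟩
  obtain ⟨v₂, hv₂⟩ : ∃ v₂, v₂ = v₁ + (w + (-(F'.Q w)) • u) := ⟨_, rfl⟩
  have hb₂ : F'.B u v₂ = 1 := by
    rw [hv₂, F'.B_add_right, F'.B_add_right, hsr, hb₁, hus.2, hsym u w, hw.1]
    ring
  have hq₂ : F'.Q v₂ = 0 := by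
    rw [hv₂, F'.Q_add, F'.Q_add, F'.Q_smul, hus.1, hT, hT, hsr, hw.1, F'.B_add_right, hsr, hsym v₁ w, hw.2, hsym v₁ u,
      hb₁, hq₁]
    ring
  refine ⟨v₁, v₂, hsing _ hq₁, hsing _ hq₂, by rw [hb₁]; exact one_ne_zero, by rw [hb₂]; exact one_ne_zero, ?_⟩
  intro c hc
  have h1 := congrArg (fun x => F'.B u x) hc
  simp only [hsr, hb₁, hb₂, mul_one] at h1
  rw [← h1, one_smul, hv₂] at hc
  have h2 : w + (-(F'.Q w)) • u = 0 := by
    have h3 : v₁ + 0 = v₁ + (w + (-(F'.Q w)) • u) := by rw [add_zero]; exact hc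
    exact (add_left_cancel h3).symm
  have h3 := congrArg (fun x => F'.B x v₁) h2
  simp only [F'.B_add_left, F'.B_smul_left, F'.B_zero_left, hw.2, hb₁] at h3
  have h4 : F'.Q w = 0 := by linear_combination -h3
  rw [h4, neg_zero, zero_smul, add_zero] at h2
  exact hw0 h2

end Cfsg.Agent.H450.CY
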