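import Cfsg.Agent.H450.CY.Row
import Cfsg.Agent.H410.BR.OmInst
import Cfsg.Agent.H987.BR.OmAut
import Cfsg.Agent.H477.HC.RowO
import Cfsg.Agent.H776.CY.Congr

/-!
# S4829, `p ∣ q - 1`: the orthogonal groups (helper450)

`rowA_orth` : `POmega K q` for a quadratic form `q` of a `CForm` with a hyperbolic pair, all automorphisms induced by
semisimilarities; `rowA_minus_one`, `rowForA_ominus_one` : the minus type.
-/

set_option autoImplicit false

open Module MulAction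
open scoped commutatorElement

namespace Cfsg.Agent.H450.CY

open Cfsg Cfsg.Agent.H53.HC Cfsg.Agent.H477.HC Cfsg.Agent.H477.HC.CForm Cfsg.Agent.H314.CY Cfsg.Agent.H770.CY
open Cfsg.Agent.H2.Pol Cfsg.Agent.H674.BR Cfsg.Agent.H410.BR Cfsg.Agent.H987.BR
open Cfsg.Agent.LieClassical Cfsg.Agent.LieClassical.OrthCore Cfsg.Agent.LieClassical.OrthTrans

universe u v w x

section swap

variable {K : Type u} [Field K] {V : Type v} [AddCommGroup V] [Module K V] {F : CForm K V}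
  {X : Type w} [AddCommGroup X] [Module K X] {F' : CForm K X} {e f : V} {j : X →ₗ[K] V}

/-- the swap of a hyperbolic pair of an orthogonal form -/
theorem exists_swap [FiniteDimensional K V] (h : Hyp F F' e f j) (hσ : ∀ a, F.σ a = a) (hε : F.ε = 1)
    (hT : ∀ a, F.T a = a) : ∃ s : F.iso, (s : V ≃ₗ[K] V) e = f ∧ (s : V ≃ₗ[K] V) f = e ∧
      ∀ x, (s : V ≃ₗ[K] V) (j x) = j x := by
  have hfe : F.B f e = 1 := h.hfe.trans hε
  have hsym : ∀ x y, F.B x y = F.B y x := by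
    intro x y
    rw [F.B_symm x y, hε, one_mul, hσ]
  let L : V →ₗ[K] V :=
    { toFun := fun v => v + (F.B v e - F.B v f) • (e - f)
      map_add' := fun x z => by
        rw [F.B_add_left, F.B_add_left]
        module
      map_smul' := fun a x => by
        rw [F.B_smul_left, F.B_smul_left, RingHom.id_apply]
        module }
  have hL : ∀ v, L v = v + (F.B v e - F.B v f) • (e - f) := fun v => rfl
  obtain ⟨z, hz⟩ := F.exists_iso L (fun u v => by
    rw [hL, hL]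
    simp only [F.B_add_left, F.B_add_right, F.B_smul_left, F.B_smul_right, F.B_sub_left, F.B_sub_right, h.he.2, h.hf.2,
      h.hef, hfe, hσ]
    rw [hsym e v, hsym f v]
    ring) (fun v => by
    have e1 : L v = v + ((F.B v e - F.B v f) • e + (-(F.B v e - F.B v f)) • f) := by
      rw [hL]
      module
    rw [e1, F.Q_add, F.Q_add, F.Q_smul, F.Q_smul, h.he.1, h.hf.1]
    simp only [F.B_add_right, F.B_smul_left, F.B_smul_right, h.hef, hσ, hT]
    ring)
  refine ⟨z, ?_, ?_, fun x => ?_⟩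
  · rw [hz, hL, h.he.2, h.hef]
    module
  · rw [hz, hL, h.hf.2, hfe]
    module
  · rw [hz, hL, h.hje, h.hjf]
    module

/-- the torus elements which are squares are commutators -/
theorem exists_tor_comm [FiniteDimensional K V] (h : Hyp F F' e f j) (hσ : ∀ a, F.σ a = a) (hε : F.ε = 1)
    (hT : ∀ a, F.T a = a) {t : K} (ht : t ≠ 0) : ∃ z ∈ commutator F.iso, Tor F e f j (t * t) z := by
  obtain ⟨z, hz⟩ := exists_tor h ht
  obtain ⟨s, hs1, hs2, hs3⟩ := exists_swap h hσ hε hT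
  have hcomm : ∀ v, ((⁅z, s⁆ : F.iso) : V ≃ₗ[K] V) ((s : V ≃ₗ[K] V) ((z : V ≃ₗ[K] V) v)) =
      (z : V ≃ₗ[K] V) ((s : V ≃ₗ[K] V) v) := by
    intro v
    have h1 : ⁅z, s⁆ * (s * z) = z * s := by
      rw [commutatorElement_def]
      group
    exact congrArg (fun g : F.iso => (g : V ≃ₗ[K] V) v) h1
  refine ⟨⁅z, s⁆, Subgroup.commutator_mem_commutator (Subgroup.mem_top z) (Subgroup.mem_top s), ?_, ?_, fun x => ?_⟩
  · have h1 := hcomm (t • f)
    rw [map_smul, hz.zf, hσ, smul_smul, mul_inv_cancel₀ ht, one_smul, hs2, map_smul, hs2, map_smul, hz.ze, smul_smul] at h1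
    exact h1
  · have h1 := hcomm (t⁻¹ • e)
    rw [map_smul, hz.ze, smul_smul, inv_mul_cancel₀ ht, one_smul, hs1, map_smul, hs1, map_smul, hz.zf, hσ, smul_smul] at h1
    rw [h1, hσ, mul_inv]
  · have h1 := hcomm (j x)
    rw [hz.zj, hs3, hz.zj] at h1
    exact h1

end swap

section orth

variable {K : Type} [Field K] [Finite K] {ι : Type} [Fintype ι] [DecidableEq ι] {q : QuadraticForm K (ι → K)}
  {F : CForm K (ι → K)} {X : Type} [AddCommGroup X] [Module K X] {F' : CForm K X} {e f : ι → K} {j : X →ₗ[K] (ι → K)}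

omit [Finite K] [Fintype ι] [DecidableEq ι] in
theorem O_eq_iso (hFQ : ∀ v, q v = F.Q v) (hFB : ∀ u v, F.B u v = F.Q (u + v) - F.Q u - F.Q v) : O q = F.iso := by
  ext k
  constructor
  · intro hk
    have hk' : ∀ v, F.Q (k v) = F.Q v := fun v => by rw [← hFQ, ← hFQ]; exact hk v
    exact ⟨fun u v => by rw [hFB, hFB, ← map_add, hk', hk', hk'], hk'⟩
  · intro hk v
    rw [hFQ, hFQ]
    exact hk.2 v

/-- `Omega` as isometries of the form -/
noncomputable def omIso (hG : Good q) (hFQ : ∀ v, q v = F.Q v) (hFB : ∀ u v, F.B u v = F.Q (u + v) - F.Q u - F.Q v) :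
    Cfsg.Omega K ⇑q →* F.iso :=
  (omRho q).codRestrict F.iso fun g => O_eq_iso hFQ hFB ▸ E_le_O (omRho_mem_E hG g)

omit [Finite K] in
theorem omIso_coe (hG : Good q) (hFQ : ∀ v, q v = F.Q v) (hFB : ∀ u v, F.B u v = F.Q (u + v) - F.Q u - F.Q v)
    (g : Cfsg.Omega K ⇑q) : ((omIso hG hFQ hFB g : F.iso) : (ι → K) ≃ₗ[K] (ι → K)) = omRho q g := rfl

omit [Finite K] in
theorem omIso_injective (hG : Good q) (hFQ : ∀ v, q v = F.Q v)
    (hFB : ∀ u v, F.B u v = F.Q (u + v) - F.Q u - F.Q v) : Function.Injective (omIso hG hFQ hFB) := by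
  intro g g' h
  exact omRho_injective q (congrArg Subtype.val h)

omit [Finite K] in
/-- the commutator subgroup is in the image -/
theorem exists_omIso (hG : Good q) (hFQ : ∀ v, q v = F.Q v)
    (hFB : ∀ u v, F.B u v = F.Q (u + v) - F.Q u - F.Q v) {k : F.iso} (hk : k ∈ commutator F.iso) :
    ∃ g, omIso hG hFQ hFB g = k := by
  have h1 : (commutator F.iso).map F.iso.subtype = ⁅F.iso, F.iso⁆ := by
    rw [commutator_def, Subgroup.map_commutator, ← MonoidHom.range_eq_map, Subgroup.range_subtype]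
  have h2 : (k : (ι → K) ≃ₗ[K] (ι → K)) ∈ E q := by
    rw [← hG.commutator_eq_E, O_eq_iso hFQ hFB, ← h1]
    exact ⟨k, hk, rfl⟩
  obtain ⟨g, hg⟩ := exists_om hG h2
  exact ⟨g, Subtype.ext hg⟩

omit [Finite K] in
/-- the action on the points -/
theorem omIso_smul_eq (hG : Good q) (hFQ : ∀ v, q v = F.Q v) (hFB : ∀ u v, F.B u v = F.Q (u + v) - F.Q u - F.Q v)
    (g : Cfsg.Omega K ⇑q) (y : F.Pt) : omIso hG hFQ hFB g • y = y ↔
      y.1.map (omRho q g : (ι → K) →ₗ[K] (ι → K)) = y.1 := by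
  constructor
  · exact fun h => congrArg Subtype.val h
  · exact fun h => Subtype.ext h

omit [Finite K] in
/-- **the automorphisms map point stabilizers to point stabilizers** -/
theorem omIso_aut (hG : Good q) (hFQ : ∀ v, q v = F.Q v) (hFB : ∀ u v, F.B u v = F.Q (u + v) - F.Q u - F.Q v)
    {α : MulAut (Cfsg.POmega K ⇑q)} (hα : GamAct hG α) (x : F.Pt) :
    ∃ y : F.Pt, ∀ u : Cfsg.Omega K ⇑q, ∃ u' : Cfsg.Omega K ⇑q,
      QuotientGroup.mk' (Subgroup.center (Cfsg.Omega K ⇑q)) u' = α (QuotientGroup.mk' (Subgroup.center (Cfsg.Omega K ⇑q)) u) ∧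
      (omIso hG hFQ hFB u' • y = y ↔ omIso hG hFQ hFB u • x = x) := by
  obtain ⟨M, hM, hind⟩ := om_aut hG (quadPol q) (fun _ _ => rfl) (fun _ => Iff.rfl) (omRho q) (fun _ _ => rfl) hα
  have hpol : ∀ u v, QuadraticMap.polar q u v = F.B u v := fun u v => by
    rw [hFB, QuadraticMap.polar, hFQ, hFQ, hFQ]
  have hx : (quadPol q).TI x.1 := by
    refine ⟨fun w hw => ?_, fun w hw w' hw' => ?_⟩
    · rw [quadPol_sing, hFQ]
      exact x.2.1.1 w hw
    · rw [quadPol_L, hpol]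
      exact x.2.1.2 w hw w' hw'
  have hy := hM.ti hx
  refine ⟨⟨hM.sub x.1, ⟨fun w hw => ?_, fun w hw w' hw' => ?_⟩, (hM.finrank x.1).trans x.2.2⟩, fun u => ?_⟩
  · rw [← hFQ]
    exact hy.1 w hw
  · rw [← hpol]
    exact hy.2 w hw w' hw'
  · obtain ⟨u', hu', hm⟩ := hind u
    refine ⟨u', hu', ?_⟩
    have key : (hM.sub x.1).map (omRho q u' : (ι → K) →ₗ[K] (ι → K)) =
        hM.sub (x.1.map (omRho q u : (ι → K) →ₗ[K] (ι → K))) := by
      ext v
      constructor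
      · rintro ⟨_, ⟨x, hx, rfl⟩, rfl⟩
        exact ⟨omRho q u x, ⟨x, hx, rfl⟩, (hm x).symm⟩
      · rintro ⟨_, ⟨x, hx, rfl⟩, rfl⟩
        exact ⟨M x, ⟨x, hx, rfl⟩, hm x⟩
    refine (omIso_smul_eq hG hFQ hFB u' _).trans (Iff.trans ?_ (omIso_smul_eq hG hFQ hFB u x).symm)
    show (hM.sub x.1).map (omRho q u' : (ι → K) →ₗ[K] (ι → K)) = hM.sub x.1 ↔ _
    rw [key]
    constructor
    · intro h1
      have h2 := congrArg (fun U => hM.symm.sub U) h1
      simp only [hM.sub_symm_sub] at h2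
      exact h2
    · intro h1
      rw [h1]

/-- **the row of `POmega`** -/
theorem rowA_orth [FiniteDimensional K X] [Finite X] (hG : Good q) (hFQ : ∀ v, q v = F.Q v)
    (hFB : ∀ u v, F.B u v = F.Q (u + v) - F.Q u - F.Q v) (hσ : ∀ a, F.σ a = a) (hε : F.ε = 1) (hT : ∀ a, F.T a = a)
    (hσ' : ∀ a, F'.σ a = a) (hε' : F'.ε = 1) (hT' : ∀ a, F'.T a = a) (hd : 3 ≤ finrank K X)
    (h : Hyp F F' e f j) {P P' : ℕ} (hP : 2 ≤ P) (hP' : 1 ≤ P')
    (hX : Nat.card {x : X // F'.Sing x} = (P - 1) * (P' + 1) + 1)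
    (hV : Nat.card {v : ι → K // F.Sing v} = (Nat.card K * P - 1) * (Nat.card K * P' + 1) + 1)
    (hH : ∀ (g : F.iso) (x y : F.Pt), ∃ h ∈ commutator F.iso, h • x = g • x ∧ h • y = g • y)
    (haut : ∀ α : MulAut (Cfsg.POmega K ⇑q), GamAct hG α)
    {p : ℕ} [hp : Fact p.Prime] (hpo : p ≠ 2) (hpq : p ∣ Nat.card K - 1)
    (hp1 : (p : ℤ) ∣ (P : ℤ) - 1) (hp2 : ¬ (p : ℤ) ∣ (P' : ℤ) + 1)
    (hpb : ∀ b : ℕ, (Nat.card K - 1) * b = (P - 1) * (P' + 1) → ¬ p ∣ Nat.card K * b)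
    [Fintype (Cfsg.POmega K ⇑q)] : RowA p (Cfsg.POmega K ⇑q) := by
  classical
  have hK1 : 1 < Nat.card K := Finite.one_lt_card
  have hp3 : 3 ≤ p := by
    have := hp.out.two_le
    omega
  have hq3 : 3 ≤ Nat.card K := by
    have := Nat.le_of_dvd (by omega) hpq
    omega
  -- the root of unity
  obtain ⟨t, ht⟩ : ∃ t : Kˣ, orderOf t = p := by
    have := Fintype.ofFinite K
    exact exists_prime_orderOf_dvd_card' p (by rwa [Nat.card_units])
  obtain ⟨r, hr⟩ : ∃ r : Kˣ, r * r = t := by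
    obtain ⟨c, hc⟩ := hp.out.odd_of_ne_two hpo
    refine ⟨t ^ (c + 1), ?_⟩
    rw [← pow_add]
    have e1 : c + 1 + (c + 1) = p + 1 := by omega
    rw [e1, pow_succ, ← ht, pow_orderOf_eq_one, one_mul]
  have htK : (t : K) ^ p = 1 := by
    rw [← Units.val_pow_eq_pow_val, ← ht, pow_orderOf_eq_one, Units.val_one]
  have ht1 : (t : K) ≠ 1 := by
    intro h1
    have h2 : t = 1 := Units.ext h1
    rw [h2, orderOf_one] at ht
    omega
  have ht2 : (t : K) * F.σ t ≠ 1 := by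
    rw [hσ]
    intro h1
    have h2 : t ^ 2 = 1 := Units.ext (by rw [Units.val_pow_eq_pow_val, pow_two, h1, Units.val_one])
    have h3 := orderOf_dvd_of_pow_eq_one h2
    rw [ht] at h3
    have := Nat.le_of_dvd (by omega) h3
    omega
  obtain ⟨z, hz, hzt⟩ := exists_tor_comm h hσ hε hT r.ne_zero
  have hrt : (r : K) * r = t := by rw [← hr, Units.val_mul]
  rw [hrt] at hzt
  obtain ⟨u, rfl⟩ := exists_omIso hG hFQ hFB hz
  refine rowA_of_hyp h hP hP' hX hV (partners_orth hσ' hε' hT' hd) (omIso hG hFQ hFB) (omIso_injective hG hFQ hFB)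
    (fun g x y => ?_) (QuotientGroup.mk' (Subgroup.center (Cfsg.Omega K ⇑q))) (QuotientGroup.mk'_surjective _)
    (fun g hg y => ?_) hq3 hp1 hp2 hpb htK ht1 ht2 hzt
    (fun α x => omIso_aut hG hFQ hFB (haut α) x)
  · obtain ⟨k, hk, h1, h2⟩ := hH g x y
    obtain ⟨u', rfl⟩ := exists_omIso hG hFQ hFB hk
    exact ⟨u', h1, h2⟩
  · rw [omIso_smul_eq]
    exact (om_model hG).ker g hg y.1

end orth

section minus

/-- `p` does not divide the number of points of the smaller form -/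
theorem not_dvd_num {q n p : ℕ} (hp : p.Prime) (hp2 : p ≠ 2) (hq : 2 ≤ q) (hpq : p ∣ q - 1) (hn : ¬ p ∣ n) {c b : ℕ}
    (hb : (q - 1) * b = (q ^ n - 1) * (q ^ c + 1)) : ¬ p ∣ q * b := by
  intro h
  have hm : ∀ k, q ^ k ≡ 1 [MOD p] := by
    intro k
    have h1 : q ≡ 1 [MOD p] := ((Nat.modEq_iff_dvd' (by omega)).2 hpq).symm
    have := h1.pow k
    rwa [one_pow] at this
  have hg : ∑ i ∈ Finset.range n, q ^ i ≡ n [MOD p] := by
    have h1 : ∑ i ∈ Finset.range n, q ^ i ≡ ∑ i ∈ Finset.range n, 1 [MOD p] := Nat.ModEq.sum fun i _ => hm i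
    rwa [Finset.sum_const, Finset.card_range, smul_eq_mul, mul_one] at h1
  have hgeom : ((q : ℤ) - 1) * (∑ i ∈ Finset.range n, q ^ i : ℕ) = (q : ℤ) ^ n - 1 := by
    rw [mul_comm]
    push_cast
    exact geom_sum_mul (q : ℤ) n
  have hbZ : ((q : ℤ) - 1) * b = ((q : ℤ) ^ n - 1) * (q ^ c + 1) := by
    have h1 := congrArg (fun x : ℕ => (x : ℤ)) hb
    have h2 : (((q - 1 : ℕ) : ℤ)) = (q : ℤ) - 1 := by
      rw [Nat.cast_sub (by omega)]; simp
    have h3 : (((q ^ n - 1 : ℕ) : ℤ)) = (q : ℤ) ^ n - 1 := by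
      rw [Nat.cast_sub (Nat.one_le_pow _ _ (by omega))]; simp
    push_cast [h2, h3] at h1
    exact h1
  have h0 : ((q : ℤ) - 1) ≠ 0 := by
    have : (2 : ℤ) ≤ q := by exact_mod_cast hq
    omega
  have hbG : b = (∑ i ∈ Finset.range n, q ^ i) * (q ^ c + 1) := by
    have h1 : (b : ℤ) = ((∑ i ∈ Finset.range n, q ^ i : ℕ) : ℤ) * (q ^ c + 1) := by
      apply mul_left_cancel₀ h0
      rw [hbZ, ← mul_assoc, hgeom]
    exact_mod_cast h1
  have h1 : q * b ≡ 1 * (n * (1 + 1)) [MOD p] := by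
    rw [hbG]
    have h2 := hm 1
    rw [pow_one] at h2
    exact h2.mul (hg.mul ((hm c).add_right 1))
  have h2 : p ∣ 1 * (n * (1 + 1)) := (Nat.modEq_zero_iff_dvd).1 (h1.symm.trans ((Nat.modEq_zero_iff_dvd).2 h))
  rw [one_mul] at h2
  rcases hp.dvd_mul.1 h2 with h3 | h3
  · exact hn h3
  · exact hp2 ((Nat.prime_dvd_prime_iff_eq hp Nat.prime_two).1 h3)

/-- `p ∣ q ^ n - 1` -/
theorem dvd_pow_sub {q p : ℕ} (hq : 1 ≤ q) (hpq : p ∣ q - 1) (n : ℕ) : (p : ℤ) ∣ ((q ^ n : ℕ) : ℤ) - 1 := by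
  have h1 : (p : ℤ) ∣ (q : ℤ) - 1 := by
    have := Int.natCast_dvd_natCast.2 hpq
    rwa [Nat.cast_sub hq, Nat.cast_one] at this
  push_cast
  exact h1.trans (sub_one_dvd_pow_sub_one _ _)

/-- `p` odd does not divide `q ^ n + 1` -/
theorem not_dvd_pow_add {q p : ℕ} (hp : p.Prime) (hp2 : p ≠ 2) (hq : 1 ≤ q) (hpq : p ∣ q - 1) (n : ℕ) :
    ¬ (p : ℤ) ∣ ((q ^ n : ℕ) : ℤ) + 1 := by
  intro h
  have h1 := dvd_sub h (dvd_pow_sub hq hpq n)
  have e1 : ((q ^ n : ℕ) : ℤ) + 1 - (((q ^ n : ℕ) : ℤ) - 1) = ((2 : ℕ) : ℤ) := by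
    push_cast
    ring
  rw [e1] at h1
  exact hp2 ((Nat.prime_dvd_prime_iff_eq hp Nat.prime_two).1 (Int.natCast_dvd_natCast.1 h1))

/-- **`PΩ⁻_{2m}(q)`, `p ∣ q - 1`, `p ∤ m - 2`** -/
theorem rowA_minus_one {K : Type} [Field K] [Finite K] {m : ℕ} (hm : 4 ≤ m) {a b : K}
    (hab : ∀ z₁ z₂ : K, z₁ ^ 2 + a * z₁ * z₂ + b * z₂ ^ 2 = 0 → z₁ = 0 ∧ z₂ = 0) {p : ℕ} [hp : Fact p.Prime]
    (hp2 : p ≠ 2) (hpq : p ∣ Nat.card K - 1) (hw : ¬ p ∣ m - 2) :
    ∀ [Fintype (Cfsg.POmega K (Cfsg.quadFormMinus (m - 1) K a b))],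
      RowA p (Cfsg.POmega K (Cfsg.quadFormMinus (m - 1) K a b)) := by
  classical
  have hfin := Fintype.ofFinite K
  have hq : 2 ≤ Nat.card K := Finite.one_lt_card
  obtain ⟨n, rfl⟩ : ∃ n, m = n + 2 := ⟨m - 2, by omega⟩
  have e0 : n + 2 - 1 = n + 1 := by omega
  have e1 : n + 2 - 2 = n := by omega
  rw [e1] at hw
  rw [e0]
  obtain ⟨e, f, j, h⟩ := CForm.frm_minus (K := K) hab (show 1 + n = n + 1 by omega)
  obtain ⟨e3, f3, j3, h3⟩ := CForm.frm_minus (K := K) hab (show 3 + (n - 2) = n + 1 by omega)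
  have hc : Fintype.card K = Nat.card K := Nat.card_eq_fintype_card.symm
  have hG : LieClassical.OrthTrans.Good (LieClassical.OrthForms.minusForm (n + 1) K a b) := by
    apply LieClassical.OrthFinite.good_of_finite (LieClassical.OrthForms.nondeg_minusForm (n + 1) K a b hab)
    rw [Module.finrank_fintype_fun_eq_card, Fintype.card_sum, Fintype.card_sum, Fintype.card_fin, Fintype.card_fin]
    omega
  have hstab := CForm.om_stab (F := CForm.minusF K (n + 1) a b hab) (F' := CForm.minusF K (n - 2) a b hab) hG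
    (fun v => congrFun (LieClassical.OrthForms.coe_minusForm (n + 1) K a b) v) (minus_hB K (n + 1) a b hab) h3
    (fun _ => rfl) (fun _ => rfl)
  have hV : Nat.card {v // (CForm.minusF K (n + 1) a b hab).Sing v} =
      (Nat.card K * Nat.card K ^ n - 1) * (Nat.card K * Nat.card K ^ (n + 1) + 1) + 1 := by
    rw [card_Sing_quad, ← pow_succ', ← pow_succ', ← num_minus hq (n + 1)]
    exact S0290.result hc (n + 2) (by omega) a b hab
  have key : ∀ [Fintype (Cfsg.POmega K ⇑(LieClassical.OrthForms.minusForm (n + 1) K a b))],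
      RowA p (Cfsg.POmega K ⇑(LieClassical.OrthForms.minusForm (n + 1) K a b)) := by
    intro _
    refine rowA_orth (F := CForm.minusF K (n + 1) a b hab) (F' := CForm.minusF K n a b hab) hG
      (fun v => congrFun (LieClassical.OrthForms.coe_minusForm (n + 1) K a b) v) (minus_hB K (n + 1) a b hab)
      (fun _ => rfl) rfl (fun _ => rfl) (fun _ => rfl) rfl (fun _ => rfl) ?_ h.hyp (P := Nat.card K ^ n)
      (P' := Nat.card K ^ (n + 1)) (two_le_pow hq (by omega)) (Nat.one_le_pow _ _ (by omega)) ?_ hV hstab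
      (fun α => gamAct_minus (by omega) hab rfl hG α) hp2 hpq ?_ ?_ ?_
    · rw [Module.finrank_fintype_fun_eq_card, Fintype.card_sum, Fintype.card_sum, Fintype.card_fin, Fintype.card_fin]
      omega
    · rw [card_Sing_quad, ← num_minus hq n]
      exact S0290.result hc (n + 1) (by omega) a b hab
    · exact dvd_pow_sub (by omega) hpq n
    · exact not_dvd_pow_add hp.out hp2 (by omega) hpq (n + 1)
    · intro b hb
      exact not_dvd_num hp.out hp2 hq hpq hw hb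
  rwa [LieClassical.OrthForms.coe_minusForm] at key

/-- **the case `p ∣ q - 1`, `p ∤ m - 2` of the field `ominus`** -/
theorem rowForA_ominus_one {p : ℕ} [hp : Fact p.Prime] (hp2 : p ≠ 2) :
    RowForA p (fun X _ => ∃ (F : Type) (_ : Field F) (_ : Fintype F) (m : ℕ) (a b : F), (p : F) ≠ 0 ∧
      4 ≤ m ∧ (∀ z₁ z₂ : F, z₁ ^ 2 + a * z₁ * z₂ + b * z₂ ^ 2 = 0 → z₁ = 0 ∧ z₂ = 0) ∧
      Nonempty (X ≃* POmega F (quadFormMinus (m - 1) F a b)) ∧ p ∣ Fintype.card F - 1 ∧ ¬ p ∣ m - 2) := by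
  intro X _ _ _ _ hd hX
  obtain ⟨F, iF, iT, m, a, b, hpF, hm, hab, ⟨e⟩, h1, h2⟩ := hX
  have : Fintype (POmega F (quadFormMinus (m - 1) F a b)) := Fintype.ofEquiv X e.toEquiv
  exact H776.CY.RowA.congr e (rowA_minus_one hm hab hp2 (by rwa [Nat.card_eq_fintype_card]) h2)

end minus

end Cfsg.Agent.H450.CY
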