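import Cfsg.Agent.H450.CY.Core
import Cfsg.Agent.H314.CY.Comb
import Cfsg.Agent.H477.HC.Rk3Chars

/-!
# S4829, `p ∣ Q - 1`: the row of a polar space from a hyperbolic pair (helper450)

`rowA_of_hyp` : `ρ : Ω →* F.iso` has rank 3 on the points, `π : Ω →* S` is surjective with kernel acting trivially on the
points, the two numbers of singular vectors, one torus element of order `p` in the image of `ρ` and the action of the
automorphisms of `S` on the point stabilizers give `RowA p S`.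
-/

set_option autoImplicit false

open Module MulAction

namespace Cfsg.Agent.H450.CY

open Cfsg Cfsg.Agent.H53.HC Cfsg.Agent.H477.HC Cfsg.Agent.H477.HC.CForm Cfsg.Agent.H314.CY Cfsg.Agent.H770.CY
open Cfsg.Agent.H690.Spor.RankThree Cfsg.Agent.H690.Spor.RankThree.R3

universe u v w x y

variable {K : Type u} [Field K] {V : Type v} [AddCommGroup V] [Module K V] {F : CForm K V}
  {X : Type w} [AddCommGroup X] [Module K X] {F' : CForm K X} {e f : V} {j : X →ₗ[K] V}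

/-- rank 3 for a group acting in the same way -/
theorem r3_of_surj {G Q Y : Type*} [Group G] [Group Q] [MulAction G Y] [MulAction Q Y] {R : Y → Y → Prop} {k l : ℕ}
    (hf : ∀ g : G, ∃ s : Q, ∀ x : Y, s • x = g • x) (hf' : ∀ s : Q, ∃ g : G, ∀ x : Y, s • x = g • x)
    (H : R3 G Y R k l) : R3 Q Y R k l := by
  refine ⟨⟨fun x y => ?_⟩, H.symm, H.irr, ?_, ?_, ?_, H.cardk, H.k0, H.l0, H.cardn⟩
  · obtain ⟨g, hg⟩ := H.trans.exists_smul_eq x y
    obtain ⟨s, hs⟩ := hf g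
    exact ⟨s, (hs x).trans hg⟩
  · intro s x y hxy
    obtain ⟨g, hg⟩ := hf' s
    rw [hg, hg]
    exact H.inv g x y hxy
  · intro x y x' y' h1 h2
    obtain ⟨g, hg1, hg2⟩ := H.one x y x' y' h1 h2
    obtain ⟨s, hs⟩ := hf g
    exact ⟨s, (hs x).trans hg1, (hs y).trans hg2⟩
  · intro x y x' y' h1 h2 h3 h4
    obtain ⟨g, hg1, hg2⟩ := H.two x y x' y' h1 h2 h3 h4
    obtain ⟨s, hs⟩ := hf g
    exact ⟨s, (hs x).trans hg1, (hs y).trans hg2⟩

/-- **the row** -/
theorem rowA_of_hyp [FiniteDimensional K V] [Finite V] [Finite K] [Finite X] (h : Hyp F F' e f j) {P P' : ℕ}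
    (hP : 2 ≤ P) (hP' : 1 ≤ P')
    (hX : Nat.card {x : X // F'.Sing x} = (P - 1) * (P' + 1) + 1)
    (hV : Nat.card {v : V // F.Sing v} = (Nat.card K * P - 1) * (Nat.card K * P' + 1) + 1)
    (hX2 : ∀ u : X, u ≠ 0 → F'.Sing u → ∃ v₁ v₂ : X, F'.Sing v₁ ∧ F'.Sing v₂ ∧ F'.B u v₁ ≠ 0 ∧ F'.B u v₂ ≠ 0 ∧
      ∀ c : K, v₁ ≠ c • v₂)
    {Om : Type y} [Group Om] (ρ : Om →* F.iso) (hρ : Function.Injective ρ)
    (hH : ∀ (g : F.iso) (x y : F.Pt), ∃ u : Om, ρ u • x = g • x ∧ ρ u • y = g • y)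
    {S : Type x} [Group S] [Fintype S] (π : Om →* S) (hπ : Function.Surjective π)
    (hker : ∀ u : Om, π u = 1 → ∀ y : F.Pt, ρ u • y = y)
    {p : ℕ} [hp : Fact p.Prime] (hq3 : 3 ≤ Nat.card K) (hp1 : (p : ℤ) ∣ (P : ℤ) - 1) (hp2 : ¬ (p : ℤ) ∣ (P' : ℤ) + 1)
    (hpb : ∀ b : ℕ, (Nat.card K - 1) * b = (P - 1) * (P' + 1) → ¬ p ∣ Nat.card K * b)
    {t : K} (htp : t ^ p = 1) (ht1 : t ≠ 1) (ht2 : t * F.σ t ≠ 1) {z : Om} (hz : Tor F e f j t (ρ z))
    (hst : ∀ (α : MulAut S) (x : F.Pt), ∃ y : F.Pt, ∀ u : Om, ∃ u' : Om, π u' = α (π u) ∧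
      (ρ u' • y = y ↔ ρ u • x = x)) : RowA p S := by
  classical
  obtain ⟨b, hb'⟩ : ∃ b, b = Nat.card F'.Pt := ⟨_, rfl⟩
  have hb := card_sing (F := F')
  rw [← hb'] at hb
  have hb1 : (Nat.card K - 1) * b = (P - 1) * (P' + 1) := by
    rw [hX] at hb
    exact Nat.add_right_cancel hb
  have hb0 : 0 < b := by
    rcases Nat.eq_zero_or_pos b with h0 | h0
    · exfalso
      rw [h0, mul_zero] at hb1
      have : 0 < (P - 1) * (P' + 1) := Nat.mul_pos (by omega) (by omega)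
      omega
    · exact h0
  have hqZ : (((Nat.card K - 1 : ℕ) : ℤ)) = (Nat.card K : ℤ) - 1 := by
    rw [Nat.cast_sub (by omega)]; simp
  have hPZ : (((P - 1 : ℕ) : ℤ)) = (P : ℤ) - 1 := by
    rw [Nat.cast_sub (by omega)]; simp
  have hbZ : ((Nat.card K : ℤ) - 1) * b = ((P : ℤ) - 1) * (P' + 1) := by
    have h1 := congrArg (fun x : ℕ => (x : ℤ)) hb1
    push_cast [hqZ, hPZ] at h1
    exact h1
  have hl : (Nat.card K - 1) * (1 + Nat.card K * b + Nat.card K * (P * P')) + 1 = Nat.card {v : V // F.Sing v} := by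
    rw [hV]
    have h1 : ((((Nat.card K - 1) * (1 + Nat.card K * b + Nat.card K * (P * P')) + 1 : ℕ)) : ℤ) =
        (((Nat.card K * P - 1) * (Nat.card K * P' + 1) + 1 : ℕ) : ℤ) := by
      have h2 : (((Nat.card K * P - 1 : ℕ) : ℤ)) = (Nat.card K : ℤ) * P - 1 := by
        rw [Nat.cast_sub (Nat.mul_pos (by omega) (by omega))]; simp
      push_cast [hqZ, h2]
      linear_combination (Nat.card K : ℤ) * hbZ
    exact_mod_cast h1
  obtain ⟨hr3, x₀, y₀, hxy, hR, hcom⟩ := r3 h (b := b) (l := Nat.card K * (P * P')) (by rw [hb])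
    hl hb0 (by positivity) ρ.range (fun g x y => by
      obtain ⟨u, h1, h2⟩ := hH g x y
      exact ⟨ρ u, ⟨u, rfl⟩, h1, h2⟩)
  -- the action of `S`
  let ψ : S →* Equiv.Perm F.Pt := MonoidHom.liftOfSurjective π hπ
    ⟨(MulAction.toPermHom F.iso F.Pt).comp ρ, fun g hg => by
      rw [MonoidHom.mem_ker] at hg ⊢
      exact Equiv.ext fun y => hker g hg y⟩
  have hψ : ∀ g, ψ (π g) = (MulAction.toPermHom F.iso F.Pt).comp ρ g := fun g =>
    MonoidHom.liftOfRightInverse_comp_apply π _ (Function.rightInverse_surjInv hπ) ⟨_, _⟩ g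
  let _ : MulAction S F.Pt := MulAction.compHom F.Pt ψ
  have hact : ∀ (u : Om) (y : F.Pt), π u • y = ρ u • y := by
    intro g y
    show ψ (π g) y = ρ g • y
    rw [hψ]
    rfl
  have hS : R3 S F.Pt F.Rel (Nat.card K * b) (Nat.card K * (P * P')) := by
    refine r3_of_surj (G := ρ.range) ?_ ?_ hr3
    · rintro ⟨_, u, rfl⟩
      exact ⟨π u, fun y => hact u y⟩
    · intro s
      obtain ⟨u, rfl⟩ := hπ s
      exact ⟨⟨ρ u, u, rfl⟩, fun y => hact u y⟩
  have hfin : Finite F.Pt := inferInstance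
  have hq : (0 : ℤ) < Nat.card K := by exact_mod_cast (by omega : 0 < Nat.card K)
  have hk1 : 1 < Nat.card K * b := by nlinarith
  have hPP : 2 ≤ P * P' := by nlinarith
  have hl1 : 1 < Nat.card K * (P * P') := by nlinarith
  have hloc := fun (y : F.Pt) (hy : π z • y = y) (hey : F.Rel (F.pt e h.e0 h.he) y) =>
    loc_tor h hz ht1 ht2 hX2 (s := π z) (fun y => hact z y) hy hey
  obtain ⟨a, ha, hb2, hpar⟩ := com_of_r3 hS hxy hR hcom
  have hparZ : (((Nat.card K * b : ℕ)) : ℤ) * ((Nat.card K * b : ℕ) : ℤ) = ((Nat.card K * b : ℕ) : ℤ) +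
      ((Nat.card K * b : ℕ) : ℤ) * a + ((Nat.card K * (P * P') : ℕ) : ℤ) * b := by exact_mod_cast hpar
  have hkpos : (0 : ℤ) < ((Nat.card K * b : ℕ) : ℤ) := by exact_mod_cast (by omega : 0 < Nat.card K * b)
  refine Cfsg.Agent.H769.CY.rowA_of_r3 hS ?_ (inj_of_r3 hS hk1 hl1) ha hb2 (r := -(P' : ℤ) - 1) (s := (P : ℤ) - 1)
    ?_ ?_ ?_ hp1 ?_ (hpb b hb1) (Q := ((default : Sylow p S) : Subgroup S)) (default : Sylow p S).isPGroup' ?_ ?_
  · -- `k ≠ l`
    intro h1
    have h2 : b = P * P' := Nat.eq_of_mul_eq_mul_left (by omega) h1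
    have h3 : (2 : ℤ) * (P * P') ≤ ((Nat.card K : ℤ) - 1) * b := by
      rw [h2]
      push_cast
      have h4 : (3 : ℤ) ≤ Nat.card K := by exact_mod_cast hq3
      have h5 : (0 : ℤ) ≤ (P : ℤ) * P' := by positivity
      exact mul_le_mul_of_nonneg_right (by omega) h5
    rw [hbZ] at h3
    have h6 : (2 : ℤ) ≤ P := by exact_mod_cast hP
    have h7 : (1 : ℤ) ≤ P' := by exact_mod_cast hP'
    have h8 : (P : ℤ) ≤ P * P' := le_mul_of_one_le_right (by omega) h7
    have e1 : ((P : ℤ) - 1) * (P' + 1) = P * P' + P - P' - 1 := by ring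
    rw [e1] at h3
    linarith
  · -- `r + s = a - b`
    apply mul_left_cancel₀ hkpos.ne'
    push_cast at hparZ ⊢
    linear_combination (-((Nat.card K : ℤ) * b)) * hbZ + hparZ
  · push_cast
    linear_combination hbZ
  · have : (2 : ℤ) ≤ P := by exact_mod_cast hP
    omega
  · intro h1
    apply hp2
    have h2 : (P' : ℤ) + 1 = -(-(P' : ℤ) - 1) := by ring
    rw [h2]
    exact (dvd_neg).2 h1
  · -- the local condition
    have ht0 : t ≠ 0 := by
      rintro rfl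
      rw [zero_pow hp.out.ne_zero] at htp
      exact zero_ne_one htp
    have hzp : (π z) ^ p ^ 1 = 1 := by
      rw [pow_one]
      have h1 : (ρ z) ^ p = 1 := tor_pow_eq_one h hz htp
      have h2 : z ^ p = 1 := hρ (by rw [map_pow, h1, map_one])
      rw [← map_pow, h2, map_one]
    have hQ := locQ_of_sylow hS.trans hS.inv (default : Sylow p S) hzp (x₀ := F.pt e h.e0 h.he)
      ((hact _ _).trans (tor_smul_e h ht0 hz)) hloc
    intro x y hx hy hxy
    obtain ⟨z, hz, hz'⟩ := hQ x hx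
    exact ⟨z, hz, hz' y (hy z hz) hxy⟩
  · intro α x
    obtain ⟨y, hy⟩ := hst α x
    refine ⟨y, ?_⟩
    ext s
    rw [Subgroup.mem_map, mem_stabilizer_iff]
    constructor
    · rintro ⟨s, hs, rfl⟩
      obtain ⟨u, rfl⟩ := hπ s
      rw [mem_stabilizer_iff, hact] at hs
      obtain ⟨u', hu', hu⟩ := hy u
      show α (π u) • y = y
      rw [← hu', hact]
      exact hu.2 hs
    · intro hs
      obtain ⟨u, hu⟩ := hπ (α.symm s)
      obtain ⟨u', hu', hu2⟩ := hy u
      have h1 : π u' = s := by rw [hu', hu, MulEquiv.apply_symm_apply]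
      refine ⟨π u, ?_, ?_⟩
      · rw [mem_stabilizer_iff, hact]
        apply hu2.1
        rw [← hact, h1]
        exact hs
      · show α (π u) = s
        rw [hu, MulEquiv.apply_symm_apply]

end Cfsg.Agent.H450.CY
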